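import Mathlib

set_option autoImplicit false

/-!
# Coordinates in an internal direct product of pairwise commuting subgroups (helper34, KS12)

`W : ι → Subgroup G` pairwise commuting (for `i ≠ j`) and independent.  `coord W hcomm` is the
canonical homomorphism `(∀ i, W i) →* G`; its range is `⨆ i, W i`, it is injective, and conjugation
by an element normalizing every `W i` acts coordinatewise.
-/

namespace Cfsg.Agent.Lib.Helper34.KS12

variable {G : Type*} [Group G] {ι : Type*} [Fintype ι]

theorem pairwise_commute_of (W : ι → Subgroup G)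
    (hcomm : ∀ i j, i ≠ j → ∀ a ∈ W i, ∀ b ∈ W j, a * b = b * a) :
    Pairwise fun i j : ι => ∀ x y : G, x ∈ W i → y ∈ W j → Commute x y :=
  fun i j hij x y hx hy => hcomm i j hij x hx y hy

/-- The coordinate homomorphism. -/
noncomputable def coord (W : ι → Subgroup G)
    (hcomm : ∀ i j, i ≠ j → ∀ a ∈ W i, ∀ b ∈ W j, a * b = b * a) : (∀ i, W i) →* G :=
  Subgroup.noncommPiCoprod (pairwise_commute_of W hcomm)

variable (W : ι → Subgroup G)
  (hcomm : ∀ i j, i ≠ j → ∀ a ∈ W i, ∀ b ∈ W j, a * b = b * a)

theorem coord_range : (coord W hcomm).range = ⨆ i, W i :=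
  Subgroup.noncommPiCoprod_range

theorem coord_mem (f : ∀ i, W i) : coord W hcomm f ∈ ⨆ i, W i := by
  rw [← coord_range W hcomm]; exact ⟨f, rfl⟩

theorem exists_coord {u : G} (hu : u ∈ ⨆ i, W i) : ∃ f : ∀ i, W i, coord W hcomm f = u := by
  rw [← coord_range W hcomm] at hu; exact hu

theorem coord_injective (hind : iSupIndep W) : Function.Injective (coord W hcomm) :=
  Subgroup.injective_noncommPiCoprod_of_iSupIndep hind

theorem coord_mulSingle [DecidableEq ι] (i : ι) (y : W i) :
    coord W hcomm (Pi.mulSingle i y) = y :=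
  Subgroup.noncommPiCoprod_mulSingle i y

/-- Conjugation by an element normalizing every `W i`, on coordinates. -/
def conjPi (g : G) (hg : ∀ i, ∀ x ∈ W i, g * x * g⁻¹ ∈ W i) : (∀ i, W i) →* (∀ i, W i) where
  toFun f := fun i => ⟨g * (f i : G) * g⁻¹, hg i _ (f i).2⟩
  map_one' := by
    funext i
    apply Subtype.ext
    simp
  map_mul' f f' := by
    funext i
    apply Subtype.ext
    simp only [Pi.mul_apply, Subgroup.coe_mul]
    group

theorem conjPi_apply (g : G) (hg : ∀ i, ∀ x ∈ W i, g * x * g⁻¹ ∈ W i) (f : ∀ i, W i) (i : ι) :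
    ((conjPi W g hg f) i : G) = g * (f i : G) * g⁻¹ := rfl

/-- Conjugation acts coordinatewise. -/
theorem conj_coord (g : G) (hg : ∀ i, ∀ x ∈ W i, g * x * g⁻¹ ∈ W i) (f : ∀ i, W i) :
    g * coord W hcomm f * g⁻¹ = coord W hcomm (conjPi W g hg f) := by
  classical
  have h : ((MulAut.conj g).toMonoidHom.comp (coord W hcomm)) =
      (coord W hcomm).comp (conjPi W g hg) := by
    apply MonoidHom.pi_ext
    intro i x
    simp only [MonoidHom.comp_apply, MulEquiv.toMonoidHom_eq_coe, MonoidHom.coe_coe,
      MulAut.conj_apply]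
    rw [coord_mulSingle]
    have : conjPi W g hg (Pi.mulSingle i x) =
        Pi.mulSingle i (⟨g * (x : G) * g⁻¹, hg i _ x.2⟩ : W i) := by
      funext j
      apply Subtype.ext
      by_cases hij : j = i
      · subst hij
        simp [conjPi]
      · simp [conjPi, Pi.mulSingle_eq_of_ne hij]
    rw [this, coord_mulSingle]
  have := congrArg (fun φ => φ f) h
  simpa using this

/-- If every coordinate of `f` lies in `H`, then so does `coord f`. -/
theorem coord_mem_of (H : Subgroup G) (f : ∀ i, W i) (h : ∀ i, (f i : G) ∈ H) :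
    coord W hcomm f ∈ H := by
  unfold coord
  rw [Subgroup.noncommPiCoprod_apply]
  exact Subgroup.noncommProd_mem _ _ (fun i _ => h i)

/-- Conjugation by an element permuting the `W i` (`g (W (τ j)) g⁻¹ ≤ W j`), on coordinates. -/
def permConjPi (g : G) (τ : Equiv.Perm ι) (hg : ∀ j, ∀ x ∈ W (τ j), g * x * g⁻¹ ∈ W j) :
    (∀ i, W i) →* (∀ i, W i) where
  toFun f := fun j => ⟨g * (f (τ j) : G) * g⁻¹, hg j _ (f (τ j)).2⟩
  map_one' := by
    funext i
    apply Subtype.ext
    simp
  map_mul' f f' := by
    funext i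
    apply Subtype.ext
    simp only [Pi.mul_apply, Subgroup.coe_mul]
    group

theorem permConjPi_apply (g : G) (τ : Equiv.Perm ι)
    (hg : ∀ j, ∀ x ∈ W (τ j), g * x * g⁻¹ ∈ W j) (f : ∀ i, W i) (j : ι) :
    ((permConjPi W g τ hg f) j : G) = g * (f (τ j) : G) * g⁻¹ := rfl

/-- Conjugation by an element permuting the `W i` acts on coordinates by `permConjPi`. -/
theorem conj_coord_perm (g : G) (τ : Equiv.Perm ι)
    (hg : ∀ j, ∀ x ∈ W (τ j), g * x * g⁻¹ ∈ W j) (f : ∀ i, W i) :
    g * coord W hcomm f * g⁻¹ = coord W hcomm (permConjPi W g τ hg f) := by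
  classical
  have h : ((MulAut.conj g).toMonoidHom.comp (coord W hcomm)) =
      (coord W hcomm).comp (permConjPi W g τ hg) := by
    apply MonoidHom.pi_ext
    intro i x
    simp only [MonoidHom.comp_apply, MulEquiv.toMonoidHom_eq_coe, MonoidHom.coe_coe,
      MulAut.conj_apply]
    rw [coord_mulSingle]
    have hmem : g * (x : G) * g⁻¹ ∈ W (τ.symm i) := by
      have := hg (τ.symm i) (x : G) (by rw [Equiv.apply_symm_apply]; exact x.2)
      exact this
    have : permConjPi W g τ hg (Pi.mulSingle i x) =
        Pi.mulSingle (τ.symm i) (⟨g * (x : G) * g⁻¹, hmem⟩ : W (τ.symm i)) := by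
      funext j
      apply Subtype.ext
      by_cases hij : j = τ.symm i
      · subst hij
        rw [permConjPi_apply, Pi.mulSingle_eq_same]
        have key : ∀ (i' : ι) (hi : i' = i), ((Pi.mulSingle (M := fun i => ↥(W i)) i x i' : W i') : G) = (x : G) := by
          intro i' hi
          subst hi
          rw [Pi.mulSingle_eq_same]
        rw [key _ (Equiv.apply_symm_apply τ i)]
      · rw [permConjPi_apply, Pi.mulSingle_eq_of_ne hij]
        have hne : τ j ≠ i := by
          intro h
          apply hij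
          rw [← h, Equiv.symm_apply_apply]
        rw [Pi.mulSingle_eq_of_ne hne]
        simp
    rw [this, coord_mulSingle]
  have := congrArg (fun φ => φ f) h
  simpa using this

/-- Normal form: if for each `i` a subgroup `Kc i ≤ L` normalizes `W i`, is transitive on its
non-identity elements and centralizes the other `W j`, then every element of `⨆ i, W i` is
`L`-conjugate to the element with coordinates `z i` (where the coordinate is non-trivial) and `1`
(where it is trivial). -/
theorem exists_conj_normal_form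
    (Kc : ι → Subgroup G) (L : Subgroup G) (hKL : ∀ i, Kc i ≤ L)
    (hnorm : ∀ i, ∀ k ∈ Kc i, ∀ w ∈ W i, k * w * k⁻¹ ∈ W i)
    (hcent : ∀ i j, i ≠ j → ∀ k ∈ Kc j, ∀ w ∈ W i, k * w * k⁻¹ = w)
    (htrans : ∀ i, ∀ w ∈ W i, ∀ w' ∈ W i, w ≠ 1 → w' ≠ 1 → ∃ k ∈ Kc i, k * w * k⁻¹ = w')
    (z : ∀ i, W i) (hz : ∀ i, z i ≠ 1) (f : ∀ i, W i) :
    ∃ l ∈ L, ∃ t : ∀ i, W i, (∀ i, (f i = 1 → t i = 1) ∧ (f i ≠ 1 → t i = z i)) ∧
      l * coord W hcomm f * l⁻¹ = coord W hcomm t := by
  classical
  have key : ∀ s : Finset ι, ∃ l ∈ L, ∃ t : ∀ i, W i,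
      (∀ i, (i ∈ s → (f i = 1 → t i = 1) ∧ (f i ≠ 1 → t i = z i)) ∧ (i ∉ s → t i = f i)) ∧
      l * coord W hcomm f * l⁻¹ = coord W hcomm t := by
    intro s
    induction s using Finset.induction_on with
    | empty => exact ⟨1, L.one_mem, f, fun i => ⟨fun h => absurd h (Finset.notMem_empty i),
        fun _ => rfl⟩, by simp⟩
    | insert j s hj ih =>
      obtain ⟨l, hl, t, ht, hleq⟩ := ih
      by_cases hfj : f j = 1
      · refine ⟨l, hl, t, fun i => ⟨fun hi => ?_, fun hi => ?_⟩, hleq⟩
        · rcases Finset.mem_insert.mp hi with rfl | hi'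
          · have := (ht i).2 hj
            exact ⟨fun _ => by rw [this, hfj], fun h => absurd hfj h⟩
          · exact (ht i).1 hi'
        · exact (ht i).2 (fun h => hi (Finset.mem_insert_of_mem h))
      · have hfj' : (f j : G) ≠ 1 := fun h => hfj (Subtype.ext h)
        have hzj' : (z j : G) ≠ 1 := fun h => hz j (Subtype.ext h)
        obtain ⟨k, hk, hkeq⟩ := htrans j (f j : G) (f j).2 (z j : G) (z j).2 hfj' hzj'
        have hkn : ∀ i, ∀ x ∈ W i, k * x * k⁻¹ ∈ W i := by
          intro i x hx
          by_cases hij : i = j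
          · subst hij
            exact hnorm i k hk x hx
          · rw [hcent i j hij k hk x hx]
            exact hx
        have hother : ∀ i, i ≠ j → conjPi W k hkn t i = t i := by
          intro i hij
          apply Subtype.ext
          rw [conjPi_apply]
          exact hcent i j hij k hk _ (Subtype.mem _)
        have hsame : conjPi W k hkn t j = z j := by
          apply Subtype.ext
          rw [conjPi_apply, (ht j).2 hj]
          exact hkeq
        refine ⟨k * l, L.mul_mem (hKL j hk) hl, conjPi W k hkn t,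
          fun i => ⟨fun hi => ?_, fun hi => ?_⟩, ?_⟩
        · rcases Finset.mem_insert.mp hi with rfl | hi'
          · exact ⟨fun h => absurd h hfj, fun _ => hsame⟩
          · have hij : i ≠ j := fun h => hj (h ▸ hi')
            rw [hother i hij]
            exact (ht i).1 hi'
        · have hij : i ≠ j := fun h => hi (h ▸ Finset.mem_insert_self j s)
          rw [hother i hij]
          exact (ht i).2 (fun h => hi (Finset.mem_insert_of_mem h))
        · have e1 : k * l * coord W hcomm f * (k * l)⁻¹ =
              k * (l * coord W hcomm f * l⁻¹) * k⁻¹ := by group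
          rw [e1, hleq, conj_coord W hcomm k hkn]
  obtain ⟨l, hl, t, ht, hleq⟩ := key Finset.univ
  exact ⟨l, hl, t, fun i => (ht i).1 (Finset.mem_univ i), hleq⟩

end Cfsg.Agent.Lib.Helper34.KS12
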