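import Cfsg.Agent.Lib.Helper34.KS12.Coord

set_option autoImplicit false

/-!
# Abstract lemmas on a system of independent commuting subgroups (helper34, KS12, S2951)

* `coord_conj_invariant`: the element with coordinates `z i` is fixed by every element permuting
  the `W i` and preserving the `z i`.
* `exists_normal_form`: every non-identity element of `⨆ i, W i` is `L`-conjugate to an element of
  `Z₀` whose centralizer lies in `L`.
-/

namespace Cfsg.Agent.Lib.Helper34.KS12

variable {G : Type*} [Group G] {ι : Type*} [Fintype ι]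
variable (W : ι → Subgroup G)
  (hcomm : ∀ i j, i ≠ j → ∀ a ∈ W i, ∀ b ∈ W j, a * b = b * a)

omit [Fintype ι] in
theorem W_injective (hind : iSupIndep W) (hW1 : ∀ i, W i ≠ ⊥) : Function.Injective W := by
  intro i j hij
  by_contra hne
  have hd : Disjoint (W i) (W j) := hind.pairwiseDisjoint hne
  rw [← hij] at hd
  exact hW1 i (disjoint_self.mp hd)

/-- An element `s` permuting the `W i` and mapping non-identity elements of `Z₀ ⊓ W i` to the
distinguished elements `z j` fixes `coord z`. -/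
theorem coord_conj_invariant (hind : iSupIndep W) (hW1 : ∀ i, W i ≠ ⊥)
    (Z₀ : Subgroup G) (z : ∀ i, W i) (hzZ : ∀ i, (z i : G) ∈ Z₀) (hz1 : ∀ i, z i ≠ 1)
    (huniq : ∀ i, ∀ x ∈ Z₀, x ∈ W i → x ≠ 1 → x = (z i : G))
    (s : G) (hperm : ∀ i, ∃ j, (W i).map (MulAut.conj s).toMonoidHom = W j)
    (hsZ : ∀ x ∈ Z₀, s * x * s⁻¹ ∈ Z₀) :
    s * coord W hcomm z * s⁻¹ = coord W hcomm z := by
  classical
  choose σ hσ using hperm
  have hσinj : Function.Injective σ := by
    intro i j hij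
    have h1 : (W i).map (MulAut.conj s).toMonoidHom = (W j).map (MulAut.conj s).toMonoidHom := by
      rw [hσ i, hσ j, hij]
    have h2 : W i = W j :=
      Subgroup.map_injective (f := (MulAut.conj s).toMonoidHom) (MulAut.conj s).injective h1
    exact W_injective W hind hW1 h2
  have hσbij : Function.Bijective σ := Finite.injective_iff_bijective.mp hσinj
  let e : Equiv.Perm ι := Equiv.ofBijective σ hσbij
  let τ : Equiv.Perm ι := e.symm
  have hτ : ∀ j, σ (τ j) = j := fun j => e.apply_symm_apply j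
  have hg : ∀ j, ∀ x ∈ W (τ j), s * x * s⁻¹ ∈ W j := by
    intro j x hx
    have h1 : s * x * s⁻¹ ∈ (W (τ j)).map (MulAut.conj s).toMonoidHom :=
      ⟨x, hx, by simp⟩
    rw [hσ (τ j), hτ j] at h1
    exact h1
  rw [conj_coord_perm W hcomm s τ hg z]
  congr 1
  funext j
  apply Subtype.ext
  rw [permConjPi_apply]
  apply huniq j
  · exact hsZ _ (hzZ (τ j))
  · exact hg j _ (z (τ j)).2
  · intro h
    have h1 : ((z (τ j) : W (τ j)) : G) = 1 := by
      have : (z (τ j) : G) = s⁻¹ * (s * (z (τ j) : G) * s⁻¹) * s := by group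
      rw [this, h]
      group
    exact hz1 (τ j) (Subtype.ext h1)

/-- Normal form under conjugation, with control of centralizers. -/
theorem exists_normal_form (hind : iSupIndep W)
    (Kc : ι → Subgroup G) (L : Subgroup G) (hKL : ∀ i, Kc i ≤ L)
    (hnorm : ∀ i, ∀ k ∈ Kc i, ∀ w ∈ W i, k * w * k⁻¹ ∈ W i)
    (hcent : ∀ i j, i ≠ j → ∀ k ∈ Kc j, ∀ w ∈ W i, k * w * k⁻¹ = w)
    (htrans : ∀ i, ∀ w ∈ W i, ∀ w' ∈ W i, w ≠ 1 → w' ≠ 1 → ∃ k ∈ Kc i, k * w * k⁻¹ = w')
    (Z₀ : Subgroup G) (z : ∀ i, W i) (hzZ : ∀ i, (z i : G) ∈ Z₀) (hz1 : ∀ i, z i ≠ 1)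
    (hA : ∀ (j : ι) (y : G), y ∈ Z₀ → y ≠ 1 → (∀ k ∈ Kc j, k * y * k⁻¹ = y) →
      Subgroup.centralizer ({y} : Set G) ≤ L)
    (hB : Subgroup.centralizer ({coord W hcomm z} : Set G) ≤ L)
    (u : G) (hu : u ∈ ⨆ i, W i) (hu1 : u ≠ 1) :
    ∃ l ∈ L, ∃ y ∈ Z₀, y ≠ 1 ∧ y ∈ ⨆ i, W i ∧ l * u * l⁻¹ = y ∧
      Subgroup.centralizer ({y} : Set G) ≤ L := by
  classical
  obtain ⟨f, rfl⟩ := exists_coord W hcomm hu
  obtain ⟨l, hl, t, ht, hleq⟩ :=
    exists_conj_normal_form W hcomm Kc L hKL hnorm hcent htrans z hz1 f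
  have hy1 : coord W hcomm t ≠ 1 := by
    intro h
    rw [h] at hleq
    apply hu1
    have : coord W hcomm f = l⁻¹ * (l * coord W hcomm f * l⁻¹) * l := by group
    rw [this, hleq]
    group
  have hyZ : coord W hcomm t ∈ Z₀ := by
    apply coord_mem_of
    intro i
    by_cases hfi : f i = 1
    · rw [(ht i).1 hfi]
      exact Z₀.one_mem
    · rw [(ht i).2 hfi]
      exact hzZ i
  refine ⟨l, hl, coord W hcomm t, hyZ, hy1, coord_mem W hcomm t, hleq, ?_⟩
  by_cases hex : ∃ j, f j = 1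
  · obtain ⟨j, hj⟩ := hex
    apply hA j _ hyZ hy1
    intro k hk
    have hkn : ∀ i, ∀ x ∈ W i, k * x * k⁻¹ ∈ W i := by
      intro i x hx
      by_cases hij : i = j
      · subst hij
        exact hnorm i k hk x hx
      · rw [hcent i j hij k hk x hx]
        exact hx
    rw [conj_coord W hcomm k hkn]
    congr 1
    funext i
    apply Subtype.ext
    rw [conjPi_apply]
    by_cases hij : i = j
    · subst hij
      rw [(ht i).1 hj]
      simp
    · exact hcent i j hij k hk _ (Subtype.mem _)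
  · have hall : ∀ j, f j ≠ 1 := fun j hj => hex ⟨j, hj⟩
    have htz : t = z := by
      funext i
      exact (ht i).2 (hall i)
    rw [htz]
    exact hB

/-- Consequence: centralizers of non-identity elements of `⨆ i, W i` lie in `L`. -/
theorem centralizer_le_of_normal_form (L : Subgroup G) (Z₀ : Subgroup G) (u : G)
    (h : ∃ l ∈ L, ∃ y ∈ Z₀, y ≠ 1 ∧ y ∈ ⨆ i, W i ∧ l * u * l⁻¹ = y ∧
      Subgroup.centralizer ({y} : Set G) ≤ L) :
    Subgroup.centralizer ({u} : Set G) ≤ L := by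
  obtain ⟨l, hl, y, -, -, -, hleq, hyL⟩ := h
  intro g hg
  have hg' : g * u = u * g := by
    have := Subgroup.mem_centralizer_iff.mp hg u (Set.mem_singleton u)
    exact this.symm
  have h1 : l * g * l⁻¹ ∈ Subgroup.centralizer ({y} : Set G) := by
    rw [Subgroup.mem_centralizer_iff]
    intro x hx
    rw [Set.mem_singleton_iff] at hx
    subst hx
    rw [← hleq]
    have e1 : l * u * l⁻¹ * (l * g * l⁻¹) = l * (u * g) * l⁻¹ := by group
    have e2 : l * g * l⁻¹ * (l * u * l⁻¹) = l * (g * u) * l⁻¹ := by group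
    rw [e1, e2, hg']
  have h2 := hyL h1
  have : g = l⁻¹ * (l * g * l⁻¹) * l := by group
  rw [this]
  exact L.mul_mem (L.mul_mem (L.inv_mem hl) h2) hl

end Cfsg.Agent.Lib.Helper34.KS12
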